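import Cfsg.Agent.SchurCert.M24Data
import Cfsg.Agent.SchurCert.Trivial
import Cfsg.Agent.Golay.Mathieu

set_option autoImplicit false

/-!
The Schur multiplier of M24 is trivial.
-/

namespace Cfsg.Agent.SchurCert

open Cfsg.Agent.Golay

theorem m24_valid :
    (m24TwoGens ++ m24TwoFus ++ m24ThreeGens ++ m24ThreeFus).all validPair = true := by
  decide +kernel

theorem m24_tested : ∀ x ∈ m24TwoGens ++ m24TwoFus ++ m24ThreeGens ++ m24ThreeFus,
    PreservesRows (codeFun x.1) := by
  decide +kernel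

theorem m24_mem : ∀ x ∈ m24TwoGens ++ m24TwoFus ++ m24ThreeGens ++ m24ThreeFus,
    permOfPair x ∈ Cfsg.M24 := by
  intro x hx
  have hv := List.all_eq_true.1 m24_valid x hx
  have h := m24_tested x hx
  exact permOfPair_mem_M24 hv h

theorem m24_card : Nat.card Cfsg.M24 = 244823040 := card_M24

theorem m24_not_two_dvd : ¬ 2 ∣ Nat.card (CentralExt.schurMult Cfsg.M24) := by
  have hv : ∀ L : List (ℕ × ℕ),
      (∀ x ∈ L, x ∈ m24TwoGens ++ m24TwoFus ++ m24ThreeGens ++ m24ThreeFus) →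
      ∀ i, (permCode Cfsg.M24).enc (elemAt Cfsg.M24 L i) = (L.map Prod.fst).getD i permOne :=
    fun L hL => enc_elemAt (List.all_eq_true.2 fun x hx => List.all_eq_true.1 m24_valid x (hL x hx))
      fun x hx => m24_mem x (hL x hx)
  haveI : Fact (Nat.Prime 2) := ⟨Nat.prime_two⟩
  have hgen : ∀ i < m24TwoCert.P.n, (permCode Cfsg.M24).enc (elemAt Cfsg.M24 m24TwoGens i) =
      m24TwoCert.gens.getD i (permCode Cfsg.M24).one :=
    fun i _ => hv _ (fun x hx => List.mem_append_left _ (List.mem_append_left _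
      (List.mem_append_left _ hx))) i
  have hchk := m24Two_check
  simp only [Cert.check, Bool.and_eq_true] at hchk
  obtain ⟨-, hcard⟩ := card_initGroup_of_groupOK (permCode Cfsg.M24) m24TwoCert Nat.prime_two
    (elemAt Cfsg.M24 m24TwoGens) hgen hchk.1.1.1 hchk.1.1.2
  refine not_dvd_schurMult_of_cert (permCode Cfsg.M24) m24TwoCert 2 rfl (elemAt Cfsg.M24 m24TwoGens)
    (elemAt Cfsg.M24 m24TwoFus) hgen
    (fun i => hv _ (fun x hx => List.mem_append_left _ (List.mem_append_left _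
      (List.mem_append_right _ hx))) i) ?_ m24Two_check
  rw [index_initGroup m24_card hcard (m := 239085) (by decide +kernel)]
  norm_num

theorem m24_not_three_dvd : ¬ 3 ∣ Nat.card (CentralExt.schurMult Cfsg.M24) := by
  have hv : ∀ L : List (ℕ × ℕ),
      (∀ x ∈ L, x ∈ m24TwoGens ++ m24TwoFus ++ m24ThreeGens ++ m24ThreeFus) →
      ∀ i, (permCode Cfsg.M24).enc (elemAt Cfsg.M24 L i) = (L.map Prod.fst).getD i permOne :=
    fun L hL => enc_elemAt (List.all_eq_true.2 fun x hx => List.all_eq_true.1 m24_valid x (hL x hx))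
      fun x hx => m24_mem x (hL x hx)
  haveI : Fact (Nat.Prime 3) := ⟨Nat.prime_three⟩
  have hgen : ∀ i < m24ThreeCert.P.n, (permCode Cfsg.M24).enc (elemAt Cfsg.M24 m24ThreeGens i) =
      m24ThreeCert.gens.getD i (permCode Cfsg.M24).one :=
    fun i _ => hv _ (fun x hx => List.mem_append_left _ (List.mem_append_right _ hx)) i
  have hchk := m24Three_check
  simp only [Cert.check, Bool.and_eq_true] at hchk
  obtain ⟨-, hcard⟩ := card_initGroup_of_groupOK (permCode Cfsg.M24) m24ThreeCert Nat.prime_three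
    (elemAt Cfsg.M24 m24ThreeGens) hgen hchk.1.1.1 hchk.1.1.2
  refine not_dvd_schurMult_of_cert (permCode Cfsg.M24) m24ThreeCert 3 rfl (elemAt Cfsg.M24 m24ThreeGens)
    (elemAt Cfsg.M24 m24ThreeFus) hgen
    (fun i => hv _ (fun x hx => List.mem_append_right _ hx) i) ?_ m24Three_check
  rw [index_initGroup m24_card hcard (m := 9067520) (by decide +kernel)]
  norm_num

theorem m24_hasTrivialMultiplier : Cfsg.HasCyclicSchurMultiplier Cfsg.M24 1 := by
  refine CentralExt.hasCyclicSchurMultiplier_one_of_not_dvd fun p hp => ?_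
  haveI : Fact p.Prime := ⟨hp⟩
  rcases eq_or_ne p 2 with rfl | h2
  · exact m24_not_two_dvd
  rcases eq_or_ne p 3 with rfl | h3
  · exact m24_not_three_dvd
  refine not_dvd_schurMult_of_sq_not_dvd p ?_
  rw [m24_card, show 244823040 = (244823040 / 8855) * 8855 by norm_num]
  intro h
  have hco : Nat.Coprime (p ^ 2) (244823040 / 8855) := by
    refine Nat.Coprime.pow_left 2 (hp.coprime_iff_not_dvd.2 fun hd => ?_)
    have hdiv : p ∣ 2 ^ 20 * 3 ^ 5 := dvd_trans hd (by norm_num)
    rcases hp.dvd_mul.1 hdiv with h' | h'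
    · exact h2 ((Nat.prime_dvd_prime_iff_eq hp Nat.prime_two).1 (hp.dvd_of_dvd_pow h'))
    · exact h3 ((Nat.prime_dvd_prime_iff_eq hp Nat.prime_three).1 (hp.dvd_of_dvd_pow h'))
  have h' := hco.dvd_of_dvd_mul_left h
  have hle : p ^ 2 ≤ 8855 := Nat.le_of_dvd (by norm_num) h'
  have hp94 : p < 95 := by nlinarith
  have hall : ∀ q < 95, 2 ≤ q → ¬ q ^ 2 ∣ 8855 := by decide +kernel
  exact hall p hp94 hp.two_le h'

end Cfsg.Agent.SchurCert
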