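import Cfsg.Agent.SchurCert.M11Data
import Cfsg.Agent.SchurCert.Trivial
import Cfsg.Agent.Golay.Mathieu

set_option autoImplicit false

/-!
The Schur multiplier of M11 is trivial.
-/

namespace Cfsg.Agent.SchurCert

open Cfsg.Agent.Golay
open scoped Pointwise

theorem smul_eq_of_maps {g : Equiv.Perm GolayPt} {d : Finset GolayPt} (h : ∀ p ∈ d, g p ∈ d) :
    g • d = d := by
  refine Finset.eq_of_subset_of_card_le ?_ (Finset.card_smul_finset g d).ge
  intro p hp
  obtain ⟨q, hq, rfl⟩ := Finset.mem_smul_finset.1 hp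
  exact h q hq

theorem m11_valid :
    (m11TwoGens ++ m11TwoFus ++ m11ThreeGens ++ m11ThreeFus).all validPair = true := by
  decide +kernel

theorem m11_tested : ∀ x ∈ m11TwoGens ++ m11TwoFus ++ m11ThreeGens ++ m11ThreeFus,
    PreservesRows (codeFun x.1) ∧ codeFun x.1 (some 0) = some 0 ∧
      ∀ p, p ∈ Spor.squareDodecad → codeFun x.1 p ∈ Spor.squareDodecad := by
  decide +kernel

theorem m11_mem : ∀ x ∈ m11TwoGens ++ m11TwoFus ++ m11ThreeGens ++ m11ThreeFus,
    permOfPair x ∈ Cfsg.Spor.M11 := by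
  intro x hx
  have hv := List.all_eq_true.1 m11_valid x hx
  have h := m11_tested x hx
  exact ⟨⟨permOfPair_mem_M24 hv h.1, MulAction.mem_stabilizer_iff.2 (smul_eq_of_maps fun p hp => by
    rw [permOfPair_apply hv]; exact h.2.2 p hp)⟩,
    MulAction.mem_stabilizer_iff.2 ((permOfPair_apply hv _).trans h.2.1)⟩

theorem m11_card : Nat.card Cfsg.Spor.M11 = 7920 := card_inf_stabilizer_dodecad_point squareDodecad_mem (by decide +kernel : (some 0 : GolayPt) ∈ Spor.squareDodecad)

theorem m11_not_two_dvd : ¬ 2 ∣ Nat.card (CentralExt.schurMult Cfsg.Spor.M11) := by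
  have hv : ∀ L : List (ℕ × ℕ),
      (∀ x ∈ L, x ∈ m11TwoGens ++ m11TwoFus ++ m11ThreeGens ++ m11ThreeFus) →
      ∀ i, (permCode Cfsg.Spor.M11).enc (elemAt Cfsg.Spor.M11 L i) = (L.map Prod.fst).getD i permOne :=
    fun L hL => enc_elemAt (List.all_eq_true.2 fun x hx => List.all_eq_true.1 m11_valid x (hL x hx))
      fun x hx => m11_mem x (hL x hx)
  haveI : Fact (Nat.Prime 2) := ⟨Nat.prime_two⟩
  have hgen : ∀ i < m11TwoCert.P.n, (permCode Cfsg.Spor.M11).enc (elemAt Cfsg.Spor.M11 m11TwoGens i) =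
      m11TwoCert.gens.getD i (permCode Cfsg.Spor.M11).one :=
    fun i _ => hv _ (fun x hx => List.mem_append_left _ (List.mem_append_left _
      (List.mem_append_left _ hx))) i
  have hchk := m11Two_check
  simp only [Cert.check, Bool.and_eq_true] at hchk
  obtain ⟨-, hcard⟩ := card_initGroup_of_groupOK (permCode Cfsg.Spor.M11) m11TwoCert Nat.prime_two
    (elemAt Cfsg.Spor.M11 m11TwoGens) hgen hchk.1.1.1 hchk.1.1.2
  refine not_dvd_schurMult_of_cert (permCode Cfsg.Spor.M11) m11TwoCert 2 rfl (elemAt Cfsg.Spor.M11 m11TwoGens)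
    (elemAt Cfsg.Spor.M11 m11TwoFus) hgen
    (fun i => hv _ (fun x hx => List.mem_append_left _ (List.mem_append_left _
      (List.mem_append_right _ hx))) i) ?_ m11Two_check
  rw [index_initGroup m11_card hcard (m := 495) (by decide +kernel)]
  norm_num

theorem m11_not_three_dvd : ¬ 3 ∣ Nat.card (CentralExt.schurMult Cfsg.Spor.M11) := by
  have hv : ∀ L : List (ℕ × ℕ),
      (∀ x ∈ L, x ∈ m11TwoGens ++ m11TwoFus ++ m11ThreeGens ++ m11ThreeFus) →
      ∀ i, (permCode Cfsg.Spor.M11).enc (elemAt Cfsg.Spor.M11 L i) = (L.map Prod.fst).getD i permOne :=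
    fun L hL => enc_elemAt (List.all_eq_true.2 fun x hx => List.all_eq_true.1 m11_valid x (hL x hx))
      fun x hx => m11_mem x (hL x hx)
  haveI : Fact (Nat.Prime 3) := ⟨Nat.prime_three⟩
  have hgen : ∀ i < m11ThreeCert.P.n, (permCode Cfsg.Spor.M11).enc (elemAt Cfsg.Spor.M11 m11ThreeGens i) =
      m11ThreeCert.gens.getD i (permCode Cfsg.Spor.M11).one :=
    fun i _ => hv _ (fun x hx => List.mem_append_left _ (List.mem_append_right _ hx)) i
  have hchk := m11Three_check
  simp only [Cert.check, Bool.and_eq_true] at hchk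
  obtain ⟨-, hcard⟩ := card_initGroup_of_groupOK (permCode Cfsg.Spor.M11) m11ThreeCert Nat.prime_three
    (elemAt Cfsg.Spor.M11 m11ThreeGens) hgen hchk.1.1.1 hchk.1.1.2
  refine not_dvd_schurMult_of_cert (permCode Cfsg.Spor.M11) m11ThreeCert 3 rfl (elemAt Cfsg.Spor.M11 m11ThreeGens)
    (elemAt Cfsg.Spor.M11 m11ThreeFus) hgen
    (fun i => hv _ (fun x hx => List.mem_append_right _ hx) i) ?_ m11Three_check
  rw [index_initGroup m11_card hcard (m := 880) (by decide +kernel)]
  norm_num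

theorem m11_hasTrivialMultiplier : Cfsg.HasCyclicSchurMultiplier Cfsg.Spor.M11 1 := by
  refine CentralExt.hasCyclicSchurMultiplier_one_of_not_dvd fun p hp => ?_
  haveI : Fact p.Prime := ⟨hp⟩
  rcases eq_or_ne p 2 with rfl | h2
  · exact m11_not_two_dvd
  rcases eq_or_ne p 3 with rfl | h3
  · exact m11_not_three_dvd
  refine not_dvd_schurMult_of_sq_not_dvd p ?_
  rw [m11_card]
  intro h
  have hle : p ^ 2 ≤ 7920 := Nat.le_of_dvd (by norm_num) h
  have hp89 : p < 89 := by nlinarith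
  have hall : ∀ q < 89, q ≠ 2 → q ≠ 3 → q.Prime → ¬ q ^ 2 ∣ 7920 := by decide +kernel
  exact hall p hp89 h2 h3 hp h

end Cfsg.Agent.SchurCert
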