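import Cfsg.Agent.SchurCert.TwoM12Data
import Cfsg.Agent.SchurCert.Trivial
import Cfsg.Agent.AutCert.M12
import Cfsg.Agent.Sporadic.TernaryAut

set_option autoImplicit false
set_option maxRecDepth 20000

/-!
The monomial group of the ternary code of length 12, as permutations of the 24 signed positions,
is the full cover of M12, and its Schur multiplier is trivial.
-/

namespace Cfsg.Agent.SchurCert.TwoM12

open Cfsg Cfsg.Agent.Golay Cfsg.Agent.Ternary12
open scoped Pointwise

/-- A signed position. -/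
def sp (k : ArrayPt) (b : Bool) : GolayPt := ptOf (2 * pIdx k + b.toNat)

/-- The sign of a unit. -/
def signB (u : (ZMod 3)ˣ) : Bool := decide (u = -1)

theorem signB_mul : ∀ u v : (ZMod 3)ˣ, signB (u * v) = xor (signB u) (signB v) := by decide +kernel

theorem units_three : ∀ u : (ZMod 3)ˣ, u = 1 ∨ u = -1 := by decide +kernel

theorem sp_inj : ∀ k k' b b', sp k b = sp k' b' → k = k' ∧ b = b' := by decide +kernel

theorem sp_surj : ∀ p : GolayPt, ∃ k b, sp k b = p := by decide +kernel

/-- A permutation of the signed positions induced by a monomial map. -/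
def Lifts (h : Equiv.Perm GolayPt) (σ : Equiv.Perm ArrayPt) (c : ArrayPt → (ZMod 3)ˣ) : Prop :=
  ∀ k b, h (sp k b) = sp (σ k) (xor b (signB (c (σ k))))

theorem Lifts.mul {h h' : Equiv.Perm GolayPt} {σ τ : Equiv.Perm ArrayPt}
    {c e : ArrayPt → (ZMod 3)ˣ} (hh : Lifts h σ c) (hh' : Lifts h' τ e) :
    Lifts (h * h') (σ * τ) (fun i => c i * e (σ.symm i)) := by
  intro k b
  simp only [Equiv.Perm.mul_apply]
  rw [hh', hh, Equiv.symm_apply_apply, signB_mul, Bool.xor_assoc,
    Bool.xor_comm (signB (e (τ k)))]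

theorem lifts_one : Lifts 1 1 1 := fun k b => by
  simp [signB, show ((1 : (ZMod 3)ˣ) = -1) ↔ False by decide]

theorem Lifts.unique {h : Equiv.Perm GolayPt} {σ τ : Equiv.Perm ArrayPt}
    {c e : ArrayPt → (ZMod 3)ˣ} (h₁ : Lifts h σ c) (h₂ : Lifts h τ e) : σ = τ ∧ c = e := by
  have key : ∀ k, σ k = τ k ∧ signB (c (σ k)) = signB (e (τ k)) := fun k => by
    obtain ⟨a, b⟩ := sp_inj _ _ _ _ ((h₁ k false).symm.trans (h₂ k false))
    exact ⟨a, by simpa using b⟩
  obtain rfl : σ = τ := Equiv.ext fun k => (key k).1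
  refine ⟨rfl, funext fun i => ?_⟩
  have h3 := (key (σ.symm i)).2
  rw [Equiv.apply_symm_apply] at h3
  rcases units_three (c i) with hu | hu <;> rcases units_three (e i) with hv | hv <;>
    simp [hu, hv, signB] at h3 ⊢ <;> exact absurd h3 (by decide)

theorem Lifts.ext {h h' : Equiv.Perm GolayPt} {σ : Equiv.Perm ArrayPt}
    {c : ArrayPt → (ZMod 3)ˣ} (h₁ : Lifts h σ c) (h₂ : Lifts h' σ c) : h = h' := by
  refine Equiv.ext fun p => ?_
  obtain ⟨k, b, rfl⟩ := sp_surj p
  rw [h₁, h₂]

/-- The signed positions. -/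
noncomputable def spEquiv : ArrayPt × Bool ≃ GolayPt :=
  Equiv.ofBijective (fun x => sp x.1 x.2)
    ⟨fun x y h => Prod.ext (sp_inj _ _ _ _ h).1 (sp_inj _ _ _ _ h).2,
      fun p => let ⟨k, b, e⟩ := sp_surj p; ⟨(k, b), e⟩⟩

theorem exists_lift (σ : Equiv.Perm ArrayPt) (c : ArrayPt → (ZMod 3)ˣ) : ∃ h, Lifts h σ c := by
  let P : Equiv.Perm (ArrayPt × Bool) :=
    { toFun := fun x => (σ x.1, xor x.2 (signB (c (σ x.1))))
      invFun := fun x => (σ.symm x.1, xor x.2 (signB (c x.1)))
      left_inv := fun x => by simp [Bool.xor_assoc]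
      right_inv := fun x => by simp [Bool.xor_assoc] }
  refine ⟨(spEquiv.symm.trans P).trans spEquiv, fun k b => ?_⟩
  have : spEquiv.symm (sp k b) = (k, b) := spEquiv.symm_apply_eq.2 rfl
  simp only [Equiv.trans_apply, this]
  rfl

/-- The monomial group of the code on the signed positions. -/
def MG : Subgroup (Equiv.Perm GolayPt) where
  carrier := {h | ∃ σ c, Preserves σ c ∧ Lifts h σ c}
  one_mem' := ⟨1, 1, preserves_one, lifts_one⟩
  mul_mem' := fun ⟨_, _, hc, hh⟩ ⟨_, _, he, hh'⟩ => ⟨_, _, hc.mul he, hh.mul hh'⟩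
  inv_mem' := fun {h} hh => by
    obtain ⟨σ, c, hc, hl⟩ := hh
    have hpow : ∀ n : ℕ, ∃ τ e, Preserves τ e ∧ Lifts (h ^ n) τ e := by
      intro n
      induction n with
      | zero => exact ⟨1, 1, preserves_one, by rw [pow_zero]; exact lifts_one⟩
      | succ n ih =>
        obtain ⟨τ, e, he, hl'⟩ := ih
        exact ⟨_, _, he.mul hc, by rw [pow_succ]; exact hl'.mul hl⟩
    obtain ⟨n, hn⟩ := (isOfFinOrder_of_finite h).mem_powers_iff_mem_zpowers.2
      (Subgroup.inv_mem _ (Subgroup.mem_zpowers h))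
    simp only at hn
    exact hn ▸ hpow n

/-- The permutation of positions. -/
noncomputable def perm12 : MG →* Equiv.Perm ArrayPt where
  toFun h := h.2.choose
  map_one' := ((1 : MG).2.choose_spec.choose_spec.2.unique lifts_one).1
  map_mul' a b := ((a * b).2.choose_spec.choose_spec.2.unique
    (a.2.choose_spec.choose_spec.2.mul b.2.choose_spec.choose_spec.2)).1

theorem perm12_spec (h : MG) : ∃ c, Preserves (perm12 h) c ∧ Lifts h.1 (perm12 h) c :=
  h.2.choose_spec

theorem range_perm12 : perm12.range = hexAut := by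
  rw [← permPart_eq]
  refine le_antisymm ?_ fun σ hσ => ?_
  · rintro _ ⟨h, rfl⟩
    obtain ⟨c, hc, -⟩ := perm12_spec h
    exact ⟨c, hc⟩
  · obtain ⟨c, hc⟩ := hσ
    obtain ⟨g, hg⟩ := exists_lift σ c
    let G : MG := ⟨g, σ, c, hc, hg⟩
    obtain ⟨e, -, he⟩ := perm12_spec G
    exact ⟨G, (he.unique hg).1⟩

/-- The table of the position permutation of a code. -/
def posF (q : ℕ) (k : ArrayPt) : ArrayPt := pPt (getC q (2 * pIdx k) / 2)

/-- The signs of a code, read from the code of the inverse. -/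
def signF (q' : ℕ) (k : ArrayPt) : (ZMod 3)ˣ :=
  if getC q' (2 * pIdx k) % 2 = 1 then -1 else 1

/-- The code of an element of the monomial group. -/
def LiftOK (x : ℕ × ℕ) : Prop :=
  (∀ k, posF x.2 (posF x.1 k) = k ∧ posF x.1 (posF x.2 k) = k) ∧
  (∀ k b, codeFun x.1 (sp k b) = sp (posF x.1 k) (xor b (signB (signF x.2 (posF x.1 k))))) ∧
  ∀ (j : Fin 6) (p : ArrayPt),
    (signF x.2 p : ZMod 3) * ofList (rowL j) (posF x.2 p) =
      lin (fun k => (signF x.2 (free k) : ZMod 3) * ofList (rowL j) (posF x.2 (free k))) p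

theorem liftOK_mem {x : ℕ × ℕ} (hv : validPair x = true) (hx : LiftOK x) : permOfPair x ∈ MG := by
  let σ : Equiv.Perm ArrayPt :=
    ⟨posF x.1, posF x.2, fun k => (hx.1 k).1, fun k => (hx.1 k).2⟩
  refine ⟨σ, signF x.2, fun y hy => ?_, fun k b => by rw [permOfPair_apply hv]; exact hx.2.1 k b⟩
  have e : monomialMap σ (signF x.2) y =
      ∑ j, y (free j) • monomialMap σ (signF x.2) (ofList (rowL j)) := by
    funext p
    rw [Finset.sum_apply]
    conv_lhs => rw [eq_lin hy]
    simp only [monomialMap, lin, Finset.mul_sum, Pi.smul_apply, smul_eq_mul]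
    exact Finset.sum_congr rfl fun j _ => mul_left_comm _ _ _
  rw [e]
  exact Submodule.sum_mem _ fun j _ => Submodule.smul_mem _ _
    (mem_iff.2 (funext fun p => hx.2.2 j p))

theorem twoM12_valid : (twoM12TwoGens ++ twoM12TwoFus ++ twoM12ThreeGens ++ twoM12ThreeFus ++
    twoM12Lifts).all validPair = true := by decide +kernel

theorem twoM12_tested : ∀ x ∈ twoM12TwoGens ++ twoM12TwoFus ++ twoM12ThreeGens ++ twoM12ThreeFus ++
    twoM12Lifts, (∀ k, posF x.2 (posF x.1 k) = k ∧ posF x.1 (posF x.2 k) = k) ∧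
    (∀ k b, codeFun x.1 (sp k b) = sp (posF x.1 k) (xor b (signB (signF x.2 (posF x.1 k))))) ∧
    ∀ (j : Fin 6) (p : ArrayPt),
      (signF x.2 p : ZMod 3) * ofList (rowL j) (posF x.2 p) =
        lin (fun k => (signF x.2 (free k) : ZMod 3) * ofList (rowL j) (posF x.2 (free k))) p := by
  decide +kernel

theorem twoM12_mem : ∀ x ∈ twoM12TwoGens ++ twoM12TwoFus ++ twoM12ThreeGens ++ twoM12ThreeFus ++
    twoM12Lifts, permOfPair x ∈ MG :=
  fun x hx => liftOK_mem (List.all_eq_true.1 twoM12_valid x hx) (twoM12_tested x hx)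

/-- The positions of the dodecad, numbered compatibly with the two codes. -/
def dp (k : ArrayPt) : GolayPt :=
  ptOf ([0, 1, 2, 3, 4, 12, 13, 8, 9, 18, 6, 16].getD (pIdx k) 0)

/-- The number of a position of the dodecad. -/
def ud (p : GolayPt) : ArrayPt :=
  pPt ([0, 1, 2, 3, 4, 0, 10, 0, 7, 8, 0, 0, 5, 6, 0, 0, 11, 0, 9].getD (ptIdx p) 0)

theorem dp_facts : (∀ k, dp k ∈ Spor.squareDodecad ∧ ud (dp k) = k) ∧
    ∀ p ∈ Spor.squareDodecad, dp (ud p) = p := by decide +kernel

theorem map_dodecad (m : Spor.M12) {p : GolayPt} (hp : p ∈ Spor.squareDodecad) :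
    (m : Equiv.Perm GolayPt) p ∈ Spor.squareDodecad :=
  (apply_mem_octad_iff (MulAction.mem_stabilizer_iff.1 m.2.2) _).2 hp

/-- The action of M12 on the twelve positions. -/
def act12 : Spor.M12 →* Equiv.Perm ArrayPt where
  toFun m :=
    { toFun := fun k => ud ((m : Equiv.Perm GolayPt) (dp k))
      invFun := fun k => ud (((m⁻¹ : Spor.M12) : Equiv.Perm GolayPt) (dp k))
      left_inv := fun k => by
        simp only [dp_facts.2 _ (map_dodecad m (dp_facts.1 k).1), Subgroup.coe_inv,
          Equiv.Perm.inv_def, Equiv.symm_apply_apply, (dp_facts.1 k).2]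
      right_inv := fun k => by
        simp only [dp_facts.2 _ (map_dodecad m⁻¹ (dp_facts.1 k).1)]
        simp only [Subgroup.coe_inv, Equiv.Perm.inv_def, Equiv.apply_symm_apply, (dp_facts.1 k).2] }
  map_one' := Equiv.ext fun k => (dp_facts.1 k).2
  map_mul' a b := Equiv.ext fun k => by
    show ud ((a : Equiv.Perm GolayPt) ((b : Equiv.Perm GolayPt) (dp k))) =
      ud ((a : Equiv.Perm GolayPt) (dp (ud ((b : Equiv.Perm GolayPt) (dp k)))))
    rw [dp_facts.2 _ (map_dodecad b (dp_facts.1 k).1)]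

theorem act12_injective : Function.Injective act12 := by
  rw [← MonoidHom.ker_eq_bot_iff, eq_bot_iff]
  intro m hm
  refine Subgroup.mem_bot.2 (Subtype.ext ?_)
  refine eq_one_of_fix_five squareDodecad_mem m.2.1 (MulAction.mem_stabilizer_iff.1 m.2.2)
    (F := Spor.squareDodecad) (Finset.Subset.refl _) (by decide +kernel) fun p hp => ?_
  have h := congrArg dp (Equiv.Perm.congr_fun (MonoidHom.mem_ker.1 hm) (ud p))
  simp only [act12, MonoidHom.coe_mk, OneHom.coe_mk, Equiv.coe_fn_mk, Equiv.Perm.coe_one, id,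
    dp_facts.2 p hp] at h
  rwa [dp_facts.2 _ (map_dodecad m hp)] at h

theorem m12_generated : Subgroup.closure ({elemAt Spor.M12 AutCert.m12Gens 0,
    elemAt Spor.M12 AutCert.m12Gens 1, elemAt Spor.M12 AutCert.m12Gens 2} : Set Spor.M12) = ⊤ := by
  haveI : Fintype Spor.M12 := Fintype.ofFinite _
  have henc : ∀ i, encPerm (elemAt Spor.M12 AutCert.m12Gens i).1 =
      (AutCert.m12Gens.map Prod.fst).getD i permOne :=
    enc_elemAt AutCert.m12Gens_tested.1 AutCert.m12Gens_mem
  have h : AutCert.m12GenC.check = true ∧ AutCert.m12GenC.start = 3 ∧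
      AutCert.m12GenC.bound = 95040 ∧ AutCert.m12GenC.vals.take 3 =
        [(AutCert.m12Gens.map Prod.fst).getD 0 permOne, (AutCert.m12Gens.map Prod.fst).getD 1 permOne,
          (AutCert.m12Gens.map Prod.fst).getD 2 permOne] := by decide +kernel
  refine AutCert.closure_eq_top_of_genCert h.1 h.2.1 ?_ (AutCert.m12_card.trans h.2.2.1.symm)
  rw [henc, henc, henc]; exact h.2.2.2

theorem act12_gens : ∀ i < 3, ∀ k,
    ud (codeFun (AutCert.m12Gens.getD i (permOne, permOne)).1 (dp k)) =
      posF (twoM12Lifts.getD i (permOne, permOne)).1 k := by decide +kernel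

theorem act12_gen_mem (i : ℕ) (hi : i < 3) :
    act12 (elemAt Spor.M12 AutCert.m12Gens i) ∈ perm12.range := by
  have hL : twoM12Lifts.getD i (permOne, permOne) ∈ twoM12TwoGens ++ twoM12TwoFus ++
      twoM12ThreeGens ++ twoM12ThreeFus ++ twoM12Lifts := by
    refine List.mem_append_right _ ?_
    have h : i < twoM12Lifts.length := lt_of_lt_of_le hi (by decide)
    rw [List.getD_eq_getElem _ _ h]; exact List.getElem_mem h
  have hv := List.all_eq_true.1 twoM12_valid _ hL
  have hG : AutCert.m12Gens.getD i (permOne, permOne) ∈ AutCert.m12Gens := by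
    have h : i < AutCert.m12Gens.length := lt_of_lt_of_le hi (by decide)
    rw [List.getD_eq_getElem _ _ h]; exact List.getElem_mem h
  refine ⟨⟨_, twoM12_mem _ hL⟩, Equiv.ext fun k => ?_⟩
  obtain ⟨c, -, hc⟩ := perm12_spec ⟨_, twoM12_mem _ hL⟩
  have h1 := hc k false
  simp only [permOfPair_apply hv, (twoM12_tested _ hL).2.1 k false] at h1
  show perm12 _ k = ud ((elemAt Spor.M12 AutCert.m12Gens i).1 (dp k))
  rw [elemAt, dif_pos (AutCert.m12Gens_mem _ hG), permOfPair_apply
    (List.all_eq_true.1 AutCert.m12Gens_tested.1 _ hG), act12_gens i hi k]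
  exact (sp_inj _ _ _ _ h1).1.symm

theorem range_act12 : act12.range = hexAut := by
  refine Subgroup.eq_of_le_of_card_ge ?_ ?_
  · rw [MonoidHom.range_eq_map, ← m12_generated, MonoidHom.map_closure, Subgroup.closure_le,
      ← range_perm12]
    rintro _ ⟨x, hx, rfl⟩
    rcases hx with rfl | rfl | rfl <;> exact act12_gen_mem _ (by norm_num)
  · rw [card_hexAut, ← Nat.card_congr (MonoidHom.ofInjective act12_injective).toEquiv,
      AutCert.m12_card]

/-- The covering map. -/
noncomputable def cover : MG →* Spor.M12 :=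
  ((MonoidHom.ofInjective act12_injective).symm.toMonoidHom.comp
    ((MulEquiv.subgroupCongr (range_perm12.trans range_act12.symm)).toMonoidHom)).comp
    perm12.rangeRestrict

theorem cover_surjective : Function.Surjective cover := by
  unfold cover
  simp only [MonoidHom.coe_comp, MulEquiv.coe_toMonoidHom]
  exact ((MulEquiv.surjective _).comp (MulEquiv.surjective _)).comp perm12.rangeRestrict_surjective

theorem ker_cover : cover.ker = perm12.ker := by
  ext x
  simp only [cover, MonoidHom.mem_ker, MonoidHom.comp_apply, MulEquiv.coe_toMonoidHom,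
    EmbeddingLike.map_eq_one_iff]
  exact ⟨fun h => congrArg Subtype.val h, fun h => Subtype.ext h⟩

theorem twoM12_commutator_code : permMul (permMul (twoM12Lifts.getD 3 (permOne, permOne)).1
    (twoM12Lifts.getD 4 (permOne, permOne)).1) (permMul (twoM12Lifts.getD 3 (permOne, permOne)).2
    (twoM12Lifts.getD 4 (permOne, permOne)).2) = pack (fun i => if i % 2 = 0 then i + 1 else i - 1) 24 := by
  decide +kernel

theorem encPerm_inv {x : ℕ × ℕ} (hv : validPair x = true) (hv' : validPair (x.2, x.1) = true) :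
    encPerm (permOfPair x)⁻¹ = x.2 := by
  have : (permOfPair x)⁻¹ = permOfPair (x.2, x.1) := by
    refine inv_eq_of_mul_eq_one_right (Equiv.ext fun p => ?_)
    rw [Equiv.Perm.mul_apply, permOfPair_apply hv', permOfPair_apply hv]
    exact (validPair_inv hv p).2
  rw [this, encPerm_permOfPair hv']

/-- The central involution. -/
def zCode : ℕ := pack (fun i => if i % 2 = 0 then i + 1 else i - 1) 24

theorem exists_z : ∃ z ∈ commutator MG, encPerm (z : Equiv.Perm GolayPt) = zCode ∧ Lifts z.1 1 (fun _ => -1) := by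
  have h3 : twoM12Lifts.getD 3 (permOne, permOne) ∈ twoM12TwoGens ++ twoM12TwoFus ++
      twoM12ThreeGens ++ twoM12ThreeFus ++ twoM12Lifts := List.mem_append_right _ (by decide +kernel)
  have h4 : twoM12Lifts.getD 4 (permOne, permOne) ∈ twoM12TwoGens ++ twoM12TwoFus ++
      twoM12ThreeGens ++ twoM12ThreeFus ++ twoM12Lifts := List.mem_append_right _ (by decide +kernel)
  have hv3 := List.all_eq_true.1 twoM12_valid _ h3
  have hv4 := List.all_eq_true.1 twoM12_valid _ h4
  let a : MG := ⟨_, twoM12_mem _ h3⟩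
  let b : MG := ⟨_, twoM12_mem _ h4⟩
  have hmem : a * b * a⁻¹ * b⁻¹ ∈ commutator MG := by
    rw [← commutatorElement_def, commutator_def]
    exact Subgroup.commutator_mem_commutator (Subgroup.mem_top a) (Subgroup.mem_top b)
  have henc : encPerm (a * b * a⁻¹ * b⁻¹ : MG).1 = zCode := by
    rw [Subgroup.coe_mul, Subgroup.coe_mul, Subgroup.coe_mul, mul_assoc, encPerm_mul, encPerm_mul,
      encPerm_mul, Subgroup.coe_inv, Subgroup.coe_inv, encPerm_permOfPair hv3,
      encPerm_permOfPair hv4, encPerm_inv hv3 (by decide +kernel), encPerm_inv hv4 (by decide +kernel)]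
    exact twoM12_commutator_code
  refine ⟨_, hmem, henc, fun k b' => ?_⟩
  have key : ∀ k b, codeFun zCode (sp k b) = sp ((1 : Equiv.Perm ArrayPt) k) (xor b (signB (-1))) := by
    decide +kernel
  rw [← key k b', codeFun, ← henc, getC_encPerm _ (ptIdx_lt _), ptOf_ptIdx, ptOf_ptIdx]

theorem isStemExtension_cover : Cfsg.IsStemExtension cover ∧ Nat.card cover.ker = 2 := by
  obtain ⟨z, hz, -, hzl⟩ := exists_z
  have hker : ∀ x ∈ cover.ker, x = 1 ∨ x = z := by
    intro x hx
    rw [ker_cover, MonoidHom.mem_ker] at hx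
    obtain ⟨c, hc, hl⟩ := perm12_spec x
    rw [hx] at hc hl
    have hconst : c = fun _ => c (0, 0) := funext fun p => scalar_of_preserves_one hc p (0, 0)
    rcases units_three (c (0, 0)) with hu | hu
    · rw [hu] at hconst
      subst hconst
      exact Or.inl (Subtype.ext (hl.ext lifts_one))
    · rw [hu] at hconst
      subst hconst
      exact Or.inr (Subtype.ext (hl.ext hzl))
  have hzker : z ∈ cover.ker := by
    rw [ker_cover, MonoidHom.mem_ker]
    obtain ⟨c, -, hl⟩ := perm12_spec z
    exact (hl.unique hzl).1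
  have hzc : ∀ g : MG, g * z = z * g := by
    intro g
    obtain ⟨c, -, hl⟩ := perm12_spec g
    have h1 := hl.mul hzl
    have h2 := hzl.mul hl
    rw [mul_one] at h1
    rw [one_mul] at h2
    refine Subtype.ext (h1.ext ?_)
    have e : (fun i => c i * (-1 : (ZMod 3)ˣ)) = fun i => (-1 : (ZMod 3)ˣ) * c ((1 : Equiv.Perm ArrayPt).symm i) :=
      funext fun i => mul_comm _ _
    rw [e]
    exact h2
  refine ⟨⟨cover_surjective, fun x hx => ?_, fun x hx => ?_⟩, ?_⟩
  · rcases hker x hx with rfl | rfl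
    · exact one_mem _
    · exact Subgroup.mem_center_iff.2 hzc
  · rcases hker x hx with rfl | rfl
    · exact one_mem _
    · exact hz
  · rw [Nat.card_eq_two_iff]
    refine ⟨1, ⟨z, hzker⟩, fun h => ?_, ?_⟩
    · have h1 : z.1 = 1 := congrArg Subtype.val (congrArg Subtype.val h.symm)
      rw [h1] at hzl
      have := congrFun (hzl.unique lifts_one).2 (0, 0)
      exact absurd this (by decide +kernel)
    · refine Set.eq_univ_iff_forall.2 fun x => ?_
      rcases hker x.1 x.2 with h | h
      · exact Or.inl (Subtype.ext h)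
      · exact Or.inr (Subtype.ext h)

theorem card_MG : Nat.card MG = 190080 := by
  rw [← Subgroup.card_mul_index cover.ker, Subgroup.index_ker, isStemExtension_cover.2,
    MonoidHom.range_eq_top.2 cover_surjective, Subgroup.card_top, AutCert.m12_card]

theorem MG_hasTrivialMultiplier : Cfsg.HasCyclicSchurMultiplier MG 1 := by
  refine CentralExt.hasCyclicSchurMultiplier_one_of_not_dvd fun p hp => ?_
  haveI : Fact p.Prime := ⟨hp⟩
  have hv : ∀ L : List (ℕ × ℕ), (∀ x ∈ L, x ∈ twoM12TwoGens ++ twoM12TwoFus ++ twoM12ThreeGens ++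
      twoM12ThreeFus ++ twoM12Lifts) → ∀ i, (permCode MG).enc (elemAt MG L i) = (L.map Prod.fst).getD i permOne :=
    fun L hL => enc_elemAt (List.all_eq_true.2 fun x hx => List.all_eq_true.1 twoM12_valid x (hL x hx))
      fun x hx => twoM12_mem x (hL x hx)
  rcases eq_or_ne p 2 with rfl | h2
  · have hchk := twoM12Two_check
    simp only [Cert.check, Bool.and_eq_true] at hchk
    have hgen : ∀ i < twoM12TwoCert.P.n, (permCode MG).enc (elemAt MG twoM12TwoGens i) =
        twoM12TwoCert.gens.getD i (permCode MG).one := fun i _ => hv _ (fun x hx => by simp [hx]) i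
    obtain ⟨-, hcard⟩ := card_initGroup_of_groupOK (permCode MG) twoM12TwoCert Nat.prime_two
      (elemAt MG twoM12TwoGens) hgen hchk.1.1.1 hchk.1.1.2
    refine not_dvd_schurMult_of_cert (permCode MG) twoM12TwoCert 2 rfl (elemAt MG twoM12TwoGens)
      (elemAt MG twoM12TwoFus) hgen (fun i => hv _ (fun x hx => by simp [hx]) i) ?_ twoM12Two_check
    rw [index_initGroup card_MG hcard (m := 1485) (by decide +kernel)]
    norm_num
  rcases eq_or_ne p 3 with rfl | h3
  · have hchk := twoM12Three_check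
    simp only [Cert.check, Bool.and_eq_true] at hchk
    have hgen : ∀ i < twoM12ThreeCert.P.n, (permCode MG).enc (elemAt MG twoM12ThreeGens i) =
        twoM12ThreeCert.gens.getD i (permCode MG).one := fun i _ => hv _ (fun x hx => by simp [hx]) i
    obtain ⟨-, hcard⟩ := card_initGroup_of_groupOK (permCode MG) twoM12ThreeCert Nat.prime_three
      (elemAt MG twoM12ThreeGens) hgen hchk.1.1.1 hchk.1.1.2
    refine not_dvd_schurMult_of_cert (permCode MG) twoM12ThreeCert 3 rfl (elemAt MG twoM12ThreeGens)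
      (elemAt MG twoM12ThreeFus) hgen (fun i => hv _ (fun x hx => by simp [hx]) i) ?_ twoM12Three_check
    rw [index_initGroup card_MG hcard (m := 7040) (by decide +kernel)]
    norm_num
  refine not_dvd_schurMult_of_sq_not_dvd p fun h => ?_
  rw [card_MG] at h
  have hle : p ^ 2 ≤ 190080 := Nat.le_of_dvd (by norm_num) h
  have hlt : p < 436 := by nlinarith
  have hall : ∀ q < 436, q ^ 2 ∣ 190080 → q % 2 = 0 ∨ q % 3 = 0 ∨ q = 1 := by
    decide +kernel
  rcases hall p hlt h with h' | h' | h'
  · exact h2 ((Nat.prime_dvd_prime_iff_eq Nat.prime_two hp).1 (Nat.dvd_of_mod_eq_zero h')).symm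
  · exact h3 ((Nat.prime_dvd_prime_iff_eq Nat.prime_three hp).1 (Nat.dvd_of_mod_eq_zero h')).symm
  · exact hp.ne_one h'

theorem m12_hasCyclicSchurMultiplier_two : Cfsg.HasCyclicSchurMultiplier Spor.M12 2 :=
  haveI : Fact (Nat.Prime 2) := ⟨Nat.prime_two⟩
  CentralExt.hasSchurMultiplier_of_universal isStemExtension_cover.1 MG_hasTrivialMultiplier
    (mulEquivOfPrimeCardEq (p := 2) isStemExtension_cover.2
      (by rw [Nat.card_congr Multiplicative.toAdd, Nat.card_zmod]))

end Cfsg.Agent.SchurCert.TwoM12
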