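import Cfsg.Agent.SchurCert.J1Code
import Cfsg.Agent.CentralExt.Sylow

set_option autoImplicit false

/-!
The Schur multiplier of the first Janko group is trivial.
-/

namespace Cfsg.Agent.SporB.J1

open SchurCert

/-- The elementary Sylow 2-subgroup of order 8 with an element of order 7 normalising it. -/
def j1TwoCert : Cert where
  P :=
    { p := 2
      n := 3
      powW := [[], [], []]
      cjW := [[], [[0]], [[0], [1]]] }
  gens := [s0.code, s1.code, s2.code]
  gs := [h.code]
  rows := [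
    .fus 0 [[0]] [[1]] [0, 0] [],
    .fus 0 [[1]] [[2]] [0, 0] [],
    .fus 0 [[0, 1]] [[1, 2]] [0, 0] [],
    .fus 0 [[2]] [[0, 2]] [0, 0] [],
    .fus 0 [[0, 2]] [[0, 1, 2]] [0, 0] [],
    .fus 0 [[1, 2]] [[0]] [0, 0] []]
  beta := [[], [], []]
  combo := [[1, 2, 4], [0, 1, 2, 4], [0, 1, 4, 5], [0, 2, 4], [1, 2, 3, 4], [2, 4, 5]]

theorem j1Two_check :
    j1TwoCert.check cmul 6277101736848182401506974708411517874814724153223283736577 = true := by
  decide +kernel

theorem j1Two_wits : [s0, s1, s2, h].all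
    (fun w => w.ok && Nat.beq (enc (toM (dec w.code))) w.code) = true := by
  decide +kernel

theorem not_two_dvd_schurMult : ¬ 2 ∣ Nat.card (CentralExt.schurMult Cfsg.Spor.J1) := by
  classical
  haveI : Fact (Nat.Prime 2) := ⟨Nat.prime_two⟩
  have hmem : ∀ w ∈ [s0, s1, s2, h], ∃ g : Cfsg.Spor.J1, j1Code.enc g = w.code := by
    intro w hw
    have hh := List.all_eq_true.1 j1Two_wits w hw
    rw [Bool.and_eq_true] at hh
    exact exists_enc_wit hh.1 hh.2
  have hex : ∀ (L : List Wit), (∀ w ∈ L, w ∈ [s0, s1, s2, h]) → ∀ i, ∃ g : Cfsg.Spor.J1,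
      j1Code.enc g = (L.map Wit.code).getD i j1Code.one := by
    intro L hL i
    rw [List.getD_eq_getElem?_getD, List.getElem?_map]
    cases hi : L[i]? with
    | none => exact ⟨1, by simpa using j1Code.enc_one⟩
    | some w => simpa [hi] using hmem w (hL w (List.mem_of_getElem? hi))
  choose gen hgen using hex [s0, s1, s2] (by simp)
  choose gs hgs using hex [h] (by simp)
  have hchk : j1TwoCert.check j1Code.mul j1Code.one = true := j1Two_check
  have hc' := hchk
  simp only [Cert.check, Bool.and_eq_true] at hc'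
  obtain ⟨-, hcard⟩ := card_initGroup_of_groupOK j1Code j1TwoCert Nat.prime_two gen
    (fun i _ => hgen i) hc'.1.1.1 hc'.1.1.2
  refine not_dvd_schurMult_of_cert j1Code j1TwoCert 2 rfl gen gs (fun i _ => hgen i) hgs ?_ hchk
  rw [index_initGroup card_J1 hcard (m := 21945) (by decide +kernel)]
  norm_num

theorem hasCyclicSchurMultiplier_J1 : Cfsg.HasCyclicSchurMultiplier ↥Cfsg.Spor.J1 1 := by
  refine CentralExt.hasCyclicSchurMultiplier_one_of_not_dvd fun p hp => ?_
  haveI : Fact p.Prime := ⟨hp⟩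
  rcases eq_or_ne p 2 with rfl | h2
  · exact not_two_dvd_schurMult
  refine not_dvd_schurMult_of_sq_not_dvd p fun hsq => ?_
  rw [card_J1] at hsq
  have hle : p ^ 2 ≤ 175560 := Nat.le_of_dvd (by norm_num) hsq
  have hlt : p < 420 := by nlinarith
  have key : ∀ q < 420, q ≠ 2 → q ≠ 1 → ¬ q ^ 2 ∣ 175560 := by decide +kernel
  exact key p hlt h2 hp.one_lt.ne' hsq

end Cfsg.Agent.SporB.J1
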