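import Cfsg.Agent.SchurCert.Cert

set_option autoImplicit false

/-!
The linear part of a certificate, checked through the packed multiplicities of the equations.
-/

namespace Cfsg.Agent.SchurCert

theorem packCount_append (a b : List ℕ) : packCount (a ++ b) = packCount a + packCount b := by
  simp [packCount]

theorem packCount_flatMap (L : List ℕ) (g : ℕ → List ℕ) :
    packCount (L.flatMap g) = (L.map fun r => packCount (g r)).sum := by
  induction L with
  | nil => rfl
  | cons a L ih => rw [List.flatMap_cons, packCount_append, ih, List.map_cons, List.sum_cons]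

/-- The entries are below a bound and the list is short. -/
def boundOK (m : ℕ) (L : List ℕ) : Bool :=
  L.all (fun x => Nat.blt x m) && Nat.blt L.length 16384

theorem flatMap_bound {m : ℕ} (L : List ℕ) (g : ℕ → List ℕ)
    (h : ∀ r, boundOK m (g r) = true) :
    (∀ x ∈ L.flatMap g, x < m) ∧ (L.flatMap g).length ≤ L.length * 16384 := by
  induction L with
  | nil => simp
  | cons a L ih =>
    have ha := h a
    simp only [boundOK, Bool.and_eq_true, List.all_eq_true, Nat.blt_eq] at ha
    refine ⟨fun x hx => ?_, ?_⟩
    · rw [List.flatMap_cons, List.mem_append] at hx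
      exact hx.elim (ha.1 x) (ih.1 x)
    · rw [List.flatMap_cons, List.length_append, List.length_cons, Nat.succ_mul]
      omega

namespace Cert

variable (D : Cert)

/-- One comparison, from the packed multiplicities. -/
def fastForm (P : List (ℕ × ℕ)) (v : ℕ) (pre₁ pre₂ : List ℕ) : Bool :=
  boundOK D.nvar pre₁ && boundOK D.nvar pre₂ && Nat.blt (D.combo.getD v []).length 1000 &&
    (List.range D.nvar).all fun l =>
      Nat.beq
        ((packCount pre₁ + ((D.combo.getD v []).map fun r => (P.getD r (0, 0)).1).sum) /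
          2 ^ (24 * l) % 16777216 % D.P.p)
        ((packCount pre₂ + ((D.combo.getD v []).map fun r => (P.getD r (0, 0)).2).sum) /
          2 ^ (24 * l) % 16777216 % D.P.p)

/-- The linear part, from the packed multiplicities of the equations. -/
def linFastOK (P : List (ℕ × ℕ)) : Bool :=
  (List.range D.P.n).all fun j =>
    D.fastForm P (PC.pVar j) (PC.pVar j :: D.betaW (D.P.powWord j)) [] &&
      (List.range j).all fun i => D.fastForm P (PC.cVar j i)
        (PC.cVar j i :: D.betaW (D.P.cjWord j i)) (D.beta.getD i [])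

/-- The equations are bounded and short. -/
def eqsOK : Bool :=
  (D.rows.map D.rowEq).all fun e => boundOK D.nvar e.1 && boundOK D.nvar e.2

theorem sameForm_of_fastForm {P : List (ℕ × ℕ)} (hb : D.eqsOK = true)
    (hP : (D.rows.map D.rowEq).map (fun e => (packCount e.1, packCount e.2)) = P)
    {v : ℕ} {pre₁ pre₂ : List ℕ} (h : D.fastForm P v pre₁ pre₂ = true) :
    sameForm D.P.p D.nvar (pre₁ ++ (D.comboEq (D.rows.map D.rowEq) v).1)
      (pre₂ ++ (D.comboEq (D.rows.map D.rowEq) v).2) = true := by
  simp only [fastForm, Bool.and_eq_true, Nat.blt_eq] at h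
  obtain ⟨⟨⟨h₁, h₂⟩, hlen⟩, hall⟩ := h
  simp only [boundOK, Bool.and_eq_true, List.all_eq_true, Nat.blt_eq] at h₁ h₂
  have hget : ∀ r, boundOK D.nvar ((D.rows.map D.rowEq).getD r ([], [])).1 = true ∧
      boundOK D.nvar ((D.rows.map D.rowEq).getD r ([], [])).2 = true ∧
      P.getD r (0, 0) = (packCount ((D.rows.map D.rowEq).getD r ([], [])).1,
        packCount ((D.rows.map D.rowEq).getD r ([], [])).2) := by
    intro r
    have hp : P.getD r (0, 0) = (packCount ((D.rows.map D.rowEq).getD r ([], [])).1,
        packCount ((D.rows.map D.rowEq).getD r ([], [])).2) := by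
      rw [← hP, show ((0, 0) : ℕ × ℕ) = (fun e : List ℕ × List ℕ => (packCount e.1, packCount e.2))
        ([], []) from rfl, List.getD_map]
    by_cases hr : r < (D.rows.map D.rowEq).length
    · have := List.all_eq_true.1 hb _ (List.getElem_mem hr)
      rw [Bool.and_eq_true] at this
      rw [List.getD_eq_getElem _ _ hr] at hp ⊢
      exact ⟨this.1, this.2, hp⟩
    · rw [List.getD_eq_default _ _ (Nat.not_lt.1 hr)] at hp ⊢
      exact ⟨rfl, rfl, hp⟩
  obtain ⟨hm₁, hl₁⟩ := flatMap_bound (D.combo.getD v [])
    (fun r => ((D.rows.map D.rowEq).getD r ([], [])).1) fun r => (hget r).1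
  obtain ⟨hm₂, hl₂⟩ := flatMap_bound (D.combo.getD v [])
    (fun r => ((D.rows.map D.rowEq).getD r ([], [])).2) fun r => (hget r).2.1
  simp only [sameForm, comboEq, Bool.and_eq_true, List.all_eq_true, Nat.blt_eq,
    List.length_append, List.mem_append]
  refine ⟨⟨⟨⟨?_, ?_⟩, ?_⟩, ?_⟩, ?_⟩
  · exact fun x hx => hx.elim (h₁.1 x) (hm₁ x)
  · exact fun x hx => hx.elim (h₂.1 x) (hm₂ x)
  · have := h₁.2; omega
  · have := h₂.2; omega
  · intro l hl
    have := List.all_eq_true.1 hall l hl
    simpa only [packCount_append, packCount_flatMap, (hget _).2.2] using this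

theorem linOK_of_linFastOK {P : List (ℕ × ℕ)} (hb : D.eqsOK = true)
    (hP : (D.rows.map D.rowEq).map (fun e => (packCount e.1, packCount e.2)) = P)
    (h : D.linFastOK P = true) : D.linOK = true := by
  simp only [linFastOK, linOK, Bool.and_eq_true, List.all_eq_true] at h ⊢
  intro j hj
  exact ⟨by simpa using D.sameForm_of_fastForm hb hP (h j hj).1,
    fun i hi => D.sameForm_of_fastForm hb hP ((h j hj).2 i hi)⟩

end Cert

end Cfsg.Agent.SchurCert
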