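import Cfsg.Agent.SchurCert.GolayPerm

set_option autoImplicit false

/-!
Certificates for the Schur multiplier of M11 at the primes 2 and 3.
-/

namespace Cfsg.Agent.SchurCert


/-- Generators with their inverses. -/
def m11TwoGens : List (ℕ × ℕ) :=
     [(0x5d9519ca8379cccbd488734a980440, 0x5d9519ca8379cccbd488734a980440),
      (0x5daae7b0e39d132ba9a8890a680820, 0x5daae7b0e39d132ba9a8890a680820),
      (0xa96f49b22179cd252d28736c410e00, 0xa96f49b22179cd252d28736c410e00),
      (0x3be8bb32e62a85274468a867069120, 0x8ccf52b144b2c72a3828bc1e24b4c0)]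

/-- Fusing elements with their inverses. -/
def m11TwoFus : List (ℕ × ℕ) :=
     [(0xb9cb5719697d2085598d88a7220c20, 0xbaa8e290ed7cd098ae0cb4aa311820),
      (0xa4eee7c8e12a9288ac6ca92d0119a0, 0xa94f7b49649d028539ac889e648e00)]

/-- The certificate. -/
def m11TwoCert : Cert where
  P :=
    { p := 2
      n := 4
      powW := [[], [], [], [1, 2]]
      cjW := [[], [[0]], [[0], [0, 1]], [[0], [2], [0, 1]]] }
  gens := m11TwoGens.map Prod.fst
  gs := m11TwoFus.map Prod.fst
  rows := [
    .assoc 3 3 3,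
    .assoc 3 3 2,
    .assoc 3 3 1,
    .assoc 3 3 0,
    .assoc 3 2 2,
    .assoc 3 1 1,
    .fus 0 [[0]] [[0, 2]] [0, 0] [],
    .fus 1 [[2, 3], [1, 3]] [[2, 3], [0, 1, 2]] [1, 1] [0, 0]]
  beta := [[8, 9], [8], [], []]
  combo := [[0, 2, 3], [0, 2, 4, 6], [0, 2, 3, 4, 5], [0, 2, 4, 5, 6], [0, 2, 4, 5], [0, 3, 4, 5], [0, 2, 7], [1, 2, 4, 5], [], []]

theorem m11Two_check : m11TwoCert.check permMul permOne = true := by decide +kernel

/-- Generators with their inverses. -/
def m11ThreeGens : List (ℕ × ℕ) :=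
     [(0x2da875c2667b9a28dc2cac9491a080, 0x558f5899727b9a899482a42e11b120),
      (0x53a879a22cb3da159649a8ae619200, 0x2bcf59a621759b05dd12a114219980)]

/-- Fusing elements with their inverses. -/
def m11ThreeFus : List (ℕ × ℕ) :=
     [(0xa9571b31e4ba869751029c8e66c020, 0x7ceea39a828ac72ab989292d06a020),
      (0xa9571b31e4ba869751029c8e66c020, 0x7ceea39a828ac72ab989292d06a020),
      (0x5da952c9467b868bc48c3c26968820, 0x5da952c9467b868bc48c3c26968820)]

/-- The certificate. -/
def m11ThreeCert : Cert where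
  P :=
    { p := 3
      n := 2
      powW := [[], []]
      cjW := [[], [[0]]] }
  gens := m11ThreeGens.map Prod.fst
  gs := m11ThreeFus.map Prod.fst
  rows := [
    .fus 0 [[0, 0, 1]] [[1, 1]] [0, 0, 0] [],
    .fus 1 [[1]] [[0]] [0, 0, 0] [],
    .fus 2 [[0, 0, 1], [0]] [[0, 0, 1], [0, 0]] [1, 0] [0, 1]]
  beta := [[], []]
  combo := [[0, 0, 1, 1], [0, 0, 1], [2, 2]]

theorem m11Three_check : m11ThreeCert.check permMul permOne = true := by decide +kernel

end Cfsg.Agent.SchurCert
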